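import Cfsg.Agent.TwoESix.LeviPerf
import Cfsg.Agent.TwoESix.LongWeyl
import Cfsg.Agent.TwoESix.RootsInst
import Cfsg.Agent.H231.QF.Defs

/-!
# `²E₆(2)`: the root elements `el r` (long roots), `zl r t` (short roots), the Weyl elements `nw w`, and the root groups
-/

set_option autoImplicit false
set_option linter.unusedSectionVars false

namespace Cfsg.Agent.H926.F4

open Cfsg.Lie
open Cfsg.Agent.ChevalleyStructure
open Cfsg.Agent.ChevalleyStructure.Elts hiding x_add x_zero x_eq_one_iff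
open Cfsg.Agent.ChevalleyStructure.TwE6Basic
open Cfsg.Agent.ChevalleyStructure.TwE6BN
open Cfsg.Agent.TwoESix.LeviA
open Cfsg.Agent.TwoESix.LeviB
open Cfsg.Agent.TwoESix.LeviD
open Cfsg.Agent.TwoESix.LeviPerf
open Cfsg.Agent.H231.QF
open Subgroup

universe u v

variable {K : Type u} [Field K]

/-- the relative root of `r` -/
abbrev rr (r : Fin 72) : Fin 4 → ℤ := Cfsg.Agent.Nodes.RGDFold.V chevE6 Cfsg.Agent.Nodes.RGDTwE6.J r.val

/-- commuting roots of `E₆` -/
def Cm (r s : Fin 72) : Prop := s.val ≠ chevE6.neg r.val ∧ (s = r ∨ chevE6.commTerms r.val s.val = [])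

instance (r s : Fin 72) : Decidable (Cm r s) := by unfold Cm; infer_instance

theorem Cm.comm {r s : Fin 72} (h : Cm r s) (t u : K) : x r.val t * x s.val u = x s.val u * x r.val t := by
  by_cases e : s = r
  · subst e
    rw [x_add, x_add, add_comm]
  · rcases h.2 with h2 | h2
    · exact absurd h2 e
    · exact (comm_of_commTerms r.isLt s.isLt (fun h => e (Fin.ext h)) h.1 h2 t u).symm

theorem cm_rho : ∀ r : Fin 72, Cm r (rho r) := by decide +kernel

theorem z_add [CharP K 2] (φ : K →+* K) (r : Fin 72) (t u : K) : z φ r t * z φ r u = z φ r (t + u) := by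
  unfold z
  have h := (cm_rho r).comm u (φ t)
  calc x r.val t * x (rho r).val (φ t) * (x r.val u * x (rho r).val (φ u))
      = x r.val t * (x (rho r).val (φ t) * x r.val u) * x (rho r).val (φ u) := by group
    _ = (x r.val t * x r.val u) * (x (rho r).val (φ t) * x (rho r).val (φ u)) := by rw [← h]; group
    _ = _ := by rw [x_add, x_add, map_add]

theorem z_zero (φ : K →+* K) (r : Fin 72) : z φ r 0 = 1 := by
  unfold z
  rw [map_zero, x_zero, x_zero, one_mul]

/-- `x_r(t) = x_s(u)` with `r ≠ s` -/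
theorem x_eq_x {r s : Fin 72} (hrs : r ≠ s) {t u : K} (h : x r.val t = x s.val u) : t = 0 := by
  have h2 := congrArg (fun g : GL chevE6.Idx K => (g : Matrix chevE6.Idx chevE6.Idx K) (Sum.inr ⟨r.val, r.isLt⟩)
    (Sum.inr ⟨chevE6.neg r.val, NPerm.neg_lt hE6 r.isLt⟩)) h
  simp only [coe_xG] at h2
  rw [NPerm.x_entry_self hE6 r.isLt, NPerm.x_entry_ne hE6 r.isLt s.isLt (fun h => hrs (Fin.ext h.symm))] at h2
  have h3 : t ^ 2 = 0 := neg_eq_zero.1 h2
  exact pow_eq_zero_iff (two_ne_zero) |>.1 h3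

theorem n_conj_z' [CharP K 2] (φ : K →+* K) (w : List (Fin 4)) (r : Fin 72) (t : K) :
    wn (K := K) w * z φ r t * (wn (K := K) w)⁻¹ = z φ (wpm w r) t := by
  induction w with
  | nil => rw [wn_nil, one_mul, inv_one, mul_one]; rfl
  | cons i w ih =>
    rw [wn_cons, wpm_cons, ← n_conj_z, ← ih]
    group

/-- words from positive to negative roots -/
theorem exists_pos : ∀ r : Fin 72, ∃ w ∈ [[], [0], [1], [2], [3], [2,1], [1,2],
    [1,2,3], [2,3], [1,0], [0,1], [2,1,0],[0,1,2],[0,1,2,3],[3,2,1,0], [3,2], [2,1,2],[1,2,1],[3,2,1],[3,2,1,2,3], [2,3,2],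
    [0,1,2,1,0], [0,1,2,3,2,1,0], [1,2,3,2,1], [2,1,2,3,2,1,2], [0,1,2,3,1,2,3], [0,1,2,3,1,2,0,1,2,3,0,1,2,1,0]],
    ∃ s : Fin 72, 36 ≤ s.val ∧ wpm w s = r := by
  decide +kernel

theorem tab_short : ∀ r : Fin 72, rho r ≠ r → chevE6.commTerms r.val (rho r).val = [] ∧
    (rho r).val ≠ chevE6.neg r.val := by decide +kernel

section Four

variable [Fintype K] {φ : K →+* K} (F : Four K φ)
include F

theorem z_mem_E {r : Fin 72} (hr : rho r ≠ r) (t : K) : z φ r t ∈ twistedE6 K 2 := by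
  have := F.charP
  obtain ⟨w, -, s, hs, rfl⟩ := exists_pos r
  rw [← n_conj_z']
  have h1 : rho s ≠ s := by
    intro h
    apply hr
    rw [Cfsg.Agent.TwoESix.LongPairs.rho_wpm, h]
  obtain ⟨h2, h3⟩ := tab_short s h1
  exact mul_mem (mul_mem (wn_mem F w) (y_mem_E_pos F hs h1 h2 h3 t)) (inv_mem (wn_mem F w))

open Classical in
/-- long root element -/
noncomputable def el (r : Fin 72) : KK K := if h : rho r = r then ⟨x r.val 1, x_mem_E F h⟩ else 1

open Classical in
/-- short root element -/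
noncomputable def zl (r : Fin 72) (t : K) : KK K := if h : rho r ≠ r then ⟨z φ r t, z_mem_E F h t⟩ else 1

/-- Weyl element -/
noncomputable def nw (w : List (Fin 4)) : KK K := ⟨wn w, wn_mem F w⟩

theorem coe_el {r : Fin 72} (h : rho r = r) : ((el F r : KK K) : GL chevE6.Idx K) = x r.val 1 := by
  rw [el, dif_pos h]

theorem coe_zl {r : Fin 72} (h : rho r ≠ r) (t : K) : ((zl F r t : KK K) : GL chevE6.Idx K) = z φ r t := by
  rw [zl, dif_pos h]

theorem coe_nw (w : List (Fin 4)) : ((nw F w : KK K) : GL chevE6.Idx K) = wn w := rfl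

theorem el_sq {r : Fin 72} (h : rho r = r) : el F r * el F r = 1 := by
  have := F.charP
  apply Subtype.ext
  rw [Subgroup.coe_mul, coe_el F h, Cfsg.Agent.TwoESix.LongPairs.x_sq]
  rfl

theorem el_ne_one {r : Fin 72} (h : rho r = r) : el F r ≠ 1 := by
  intro h1
  have h2 := congrArg (Subtype.val) h1
  rw [coe_el F h] at h2
  exact Cfsg.Agent.TwoESix.LongPairs.x_ne_one r.isLt h2

theorem zl_add {r : Fin 72} (h : rho r ≠ r) (t u : K) : zl F r t * zl F r u = zl F r (t + u) := by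
  have := F.charP
  apply Subtype.ext
  rw [Subgroup.coe_mul, coe_zl F h, coe_zl F h, coe_zl F h, z_add]

theorem zl_zero (r : Fin 72) : zl F r 0 = 1 := by
  by_cases h : rho r ≠ r
  · apply Subtype.ext
    rw [coe_zl F h, z_zero]
    rfl
  · rw [zl, dif_neg h]

theorem zl_sq {r : Fin 72} (h : rho r ≠ r) (t : K) : zl F r t * zl F r t = 1 := by
  have := F.charP
  rw [zl_add F h, CharTwo.add_self_eq_zero, zl_zero]

theorem nw_el (w : List (Fin 4)) {r : Fin 72} (h : rho r = r) : nw F w * el F r * (nw F w)⁻¹ = el F (wpm w r) := by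
  have := F.charP
  apply Subtype.ext
  have h' : rho (wpm w r) = wpm w r := by rw [Cfsg.Agent.TwoESix.LongPairs.rho_wpm, h]
  rw [coe_el F h', Subgroup.coe_mul, Subgroup.coe_mul, Subgroup.coe_inv, coe_el F h, coe_nw, wn_conj]

theorem nw_zl (w : List (Fin 4)) {r : Fin 72} (h : rho r ≠ r) (t : K) :
    nw F w * zl F r t * (nw F w)⁻¹ = zl F (wpm w r) t := by
  have := F.charP
  apply Subtype.ext
  have h' : rho (wpm w r) ≠ wpm w r := by
    intro h1
    rw [Cfsg.Agent.TwoESix.LongPairs.rho_wpm] at h1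
    exact h (Cfsg.Agent.TwoESix.LongWeyl.wpm_injective w h1)
  rw [coe_zl F h', Subgroup.coe_mul, Subgroup.coe_mul, Subgroup.coe_inv, coe_zl F h, coe_nw, n_conj_z']

/-- `z` of the other root of the pair -/
theorem zl_rho {r : Fin 72} (h : rho r ≠ r) (t : K) : zl F (rho r) t = zl F r (φ t) := by
  have := F.charP
  apply Subtype.ext
  have h' : rho (rho r) ≠ rho r := by rw [rho_rho]; exact h.symm
  rw [coe_zl F h', coe_zl F h]
  unfold z
  rw [rho_rho, F.inv]
  exact ((cm_rho r).comm (φ t) t).symm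

/-! ### Commutation -/

omit F [Fintype K] in
theorem conj_of {G : Type*} [Group G] {s r k : G} (h : s * r = r * s * k) (hk : s * k = k * s) :
    s * r * s⁻¹ = r * k := by
  rw [h, mul_assoc r s k, hk]; group

theorem el_el {a b : Fin 72} (ha : rho a = a) (hb : rho b = b) (h : Cm a b) : el F a * el F b = el F b * el F a := by
  apply Subtype.ext
  rw [Subgroup.coe_mul, Subgroup.coe_mul, coe_el F ha, coe_el F hb]
  exact h.comm 1 1

/-- `[x_a, x_b] = x_c` -/
theorem el_el' {a b c : Fin 72} (ha : rho a = a) (hb : rho b = b) (hc : rho c = c) (h : Single b a c) (h' : Cm a c) :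
    el F a * el F b * (el F a)⁻¹ = el F b * el F c := by
  have := F.charP
  refine conj_of ?_ (el_el F ha hc h')
  apply Subtype.ext
  rw [Subgroup.coe_mul, Subgroup.coe_mul, Subgroup.coe_mul, coe_el F ha, coe_el F hb, coe_el F hc]
  have := h.comm (K := K) 1 1
  rwa [one_mul] at this

omit F [Fintype K] in
theorem z_x_comm {a b : Fin 72} (h1 : Cm a b) (h2 : Cm a (rho b)) (s t : K) :
    x a.val s * z φ b t = z φ b t * x a.val s := by
  unfold z
  have e1 := h1.comm s t
  have e2 := h2.comm s (φ t)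
  rw [← mul_assoc, e1, mul_assoc, e2, mul_assoc]

theorem el_zl {a b : Fin 72} (ha : rho a = a) (h1 : Cm a b) (h2 : Cm a (rho b)) (t : K) :
    el F a * zl F b t = zl F b t * el F a := by
  by_cases hb : rho b ≠ b
  · apply Subtype.ext
    rw [Subgroup.coe_mul, Subgroup.coe_mul, coe_el F ha, coe_zl F hb]
    exact z_x_comm h1 h2 1 t
  · rw [zl, dif_neg hb, mul_one, one_mul]

omit F [Fintype K] in
theorem z_z_comm {a b : Fin 72} (h1 : Cm a b) (h2 : Cm a (rho b)) (h3 : Cm (rho a) b) (h4 : Cm (rho a) (rho b))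
    (s t : K) : z φ a s * z φ b t = z φ b t * z φ a s := by
  have e1 := z_x_comm (φ := φ) h1 h2 s t
  have e2 := z_x_comm (φ := φ) h3 h4 (φ s) t
  have e3 : z φ a s = x a.val s * x (rho a).val (φ s) := rfl
  rw [e3, mul_assoc, e2, ← mul_assoc, e1, mul_assoc]

theorem zl_zl {a b : Fin 72} (h1 : Cm a b) (h2 : Cm a (rho b)) (h3 : Cm (rho a) b) (h4 : Cm (rho a) (rho b)) (s t : K) :
    zl F a s * zl F b t = zl F b t * zl F a s := by
  by_cases ha : rho a ≠ a
  · by_cases hb : rho b ≠ b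
    · apply Subtype.ext
      rw [Subgroup.coe_mul, Subgroup.coe_mul, coe_zl F ha, coe_zl F hb]
      exact z_z_comm h1 h2 h3 h4 s t
    · rw [zl, zl, dif_neg hb, mul_one, one_mul]
  · rw [zl, dif_neg ha, mul_one, one_mul]

omit F [Fintype K] in
theorem Single.conj [CharP K 2] {r s k : Fin 72} (h : Single r s k) (h' : Cm s k) (t u : K) :
    x s.val u * x r.val t * (x s.val u)⁻¹ = x r.val t * x k.val (t * u) :=
  conj_of (h.comm t u) (h'.comm u (t * u))

/-- the configuration `c = a + b`, `d = c + ρ b` -/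
def Tr (a b c d : Fin 72) : Prop :=
  Single a b c ∧ Cm b c ∧ Single a (rho b) (rho c) ∧ Cm (rho b) (rho c) ∧ Single (rho c) b d ∧ Cm b d

instance (a b c d : Fin 72) : Decidable (Tr a b c d) := by unfold Tr; infer_instance

omit F [Fintype K] in
theorem Tr.conj [CharP K 2] {a b c d : Fin 72} (h : Tr a b c d) (t : K) :
    z φ b t * x a.val 1 * (z φ b t)⁻¹ = x a.val 1 * z φ c t * x d.val (φ t * t) := by
  obtain ⟨h1, h2, h3, h4, h5, h6⟩ := h
  have e1 := Single.conj h1 h2 (1 : K) t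
  have e2 := Single.conj h3 h4 (1 : K) (φ t)
  have e3 := Single.conj h5 h6 (φ t) t
  rw [one_mul] at e1 e2
  show x b.val t * x (rho b).val (φ t) * x a.val 1 * (x b.val t * x (rho b).val (φ t))⁻¹ =
    x a.val 1 * (x c.val t * x (rho c).val (φ t)) * x d.val (φ t * t)
  calc x b.val t * x (rho b).val (φ t) * x a.val 1 * (x b.val t * x (rho b).val (φ t))⁻¹
      = x b.val t * (x (rho b).val (φ t) * x a.val 1 * (x (rho b).val (φ t))⁻¹) * (x b.val t)⁻¹ := by group
    _ = (x b.val t * x a.val 1 * (x b.val t)⁻¹) * (x b.val t * x (rho c).val (φ t) * (x b.val t)⁻¹) := by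
        rw [e2]; group
    _ = _ := by rw [e1, e3]; simp only [mul_assoc]

theorem norm_one {t : K} (ht : t ≠ 0) : φ t * t = 1 := by
  have h := FiniteField.pow_card_sub_one_eq_one t ht
  rw [F.card] at h
  rw [F.sq]
  calc t ^ 2 * t = t ^ (4 - 1) := by ring
    _ = 1 := h

theorem zl_el' {a b c d : Fin 72} (ha : rho a = a) (hb : rho b ≠ b) (hc : rho c ≠ c) (hd : rho d = d)
    (h : Tr a b c d) {t : K} (ht : t ≠ 0) :
    zl F b t * el F a * (zl F b t)⁻¹ = el F a * zl F c t * el F d := by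
  have := F.charP
  apply Subtype.ext
  rw [Subgroup.coe_mul, Subgroup.coe_mul, Subgroup.coe_inv, Subgroup.coe_mul, Subgroup.coe_mul, coe_el F ha,
    coe_el F hd, coe_zl F hb, coe_zl F hc, h.conj t, norm_one F ht]

/-! ### The root groups -/

omit F [Fintype K] in
theorem tab_rr : ∀ r s : Fin 72, rr s = rr r ↔ s = r ∨ s = rho r := by decide +kernel

omit F [Fintype K] in
theorem mem_X_iff {r : Fin 72} {y : KK K} : y ∈ X φ (rr r) ↔
    (y : GL chevE6.Idx K) ∈ rs K [r.val, (rho r).val] ∧ (y : GL chevE6.Idx K) ∈ fix φ := by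
  have h := Cfsg.Agent.Nodes.RGDFold.R_eq (hp := Cfsg.Agent.Nodes.RGDTwE6.hp) (K := K)
    (J := Cfsg.Agent.Nodes.RGDTwE6.J) (σ := sg φ) (z := rr r) (o := [r.val, (rho r).val])
    (fun k hk => by
      have h1 := tab_rr r ⟨k, hk⟩
      rw [List.mem_cons, List.mem_singleton]
      constructor
      · intro h2
        rcases h1.1 h2 with h3 | h3
        · exact Or.inl (congrArg Fin.val h3)
        · exact Or.inr (congrArg Fin.val h3)
      · rintro (h2 | h2)
        · exact h1.2 (Or.inl (Fin.ext h2))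
        · exact h1.2 (Or.inr (Fin.ext h2)))
    (fun k hk => by
      rw [List.mem_cons, List.mem_singleton] at hk
      rcases hk with rfl | rfl
      · exact r.isLt
      · exact (rho r).isLt)
  have h2 : y ∈ X φ (rr r) ↔ (y : GL chevE6.Idx K) ∈ Cfsg.Agent.Nodes.RGDFold.R chevE6 Cfsg.Agent.Nodes.RGDTwE6.hp K
      Cfsg.Agent.Nodes.RGDTwE6.J (sg φ) (rr r) := Iff.rfl
  rw [h2, h, Subgroup.mem_inf, Cfsg.Agent.Nodes.RGDTwE6.rspan_eq]
  rfl

theorem mem_long {r : Fin 72} (hr : rho r = r) {y : KK K} (hy : y ∈ X φ (rr r)) : y = 1 ∨ y = el F r := by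
  have := F.charP
  obtain ⟨h1, h2⟩ := mem_X_iff.1 hy
  rw [hr] at h1
  have h3 : (y : GL chevE6.Idx K) ∈ rs K [r.val] := by
    refine rs_le (fun s hs t => ?_) h1
    rw [List.mem_cons, List.mem_singleton, or_self] at hs
    exact x_mem_rs (List.mem_singleton.2 hs) t
  obtain ⟨t, ht⟩ := rs_single h3
  by_cases h0 : t = 0
  · left
    apply Subtype.ext
    rw [ht, h0, x_zero]
    rfl
  · right
    apply Subtype.ext
    rw [coe_el F hr, ht]
    rw [ht, mem_fix, sg_x2, hr] at h2
    rw [F.eq_one h0 (x_injective r.isLt h2)]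

theorem mem_short {r : Fin 72} (hr : rho r ≠ r) {y : KK K} (hy : y ∈ X φ (rr r)) : ∃ t, y = zl F r t := by
  have := F.charP
  obtain ⟨h1, h2⟩ := mem_X_iff.1 hy
  obtain ⟨t, u, ht⟩ := rs_pair (fun t u => ((cm_rho r).comm t u).symm) h1
  refine ⟨t, Subtype.ext ?_⟩
  rw [coe_zl F hr, ht]
  rw [ht, mem_fix, map_mul, sg_x2, sg_x2, rho_rho, ← (cm_rho r).comm] at h2
  have h3 : x r.val (-t + φ u) = x (rho r).val (u + -φ t) := by
    rw [← x_add, ← x_add]
    have e1 : x r.val (-t) * x r.val t = (1 : GL chevE6.Idx K) := by rw [x_add, neg_add_cancel, x_zero]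
    have e2 : x (rho r).val (φ t) * x (rho r).val (-φ t) = (1 : GL chevE6.Idx K) := by
      rw [x_add, add_neg_cancel, x_zero]
    calc x r.val (-t) * x r.val (φ u) = x r.val (-t) * (x r.val (φ u) * x (rho r).val (φ t)) * x (rho r).val (-φ t) := by
          rw [← mul_assoc, mul_assoc, e2, mul_one]
      _ = (x r.val (-t) * x r.val t) * x (rho r).val u * x (rho r).val (-φ t) := by rw [h2]; simp only [mul_assoc]
      _ = _ := by rw [e1, one_mul]
  have h4 := x_eq_x (fun h => hr h.symm) h3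
  rw [h4, x_zero] at h3
  have h5 := (x_eq_one_iff (rho r).isLt (u + -φ t)).1 h3.symm
  have h6 : u = φ t := by rw [← sub_eq_zero, sub_eq_add_neg]; exact h5
  rw [h6]
  rfl

theorem el_mem {r : Fin 72} (hr : rho r = r) : el F r ∈ X φ (rr r) :=
  mem_X_iff.2 ⟨by rw [coe_el F hr]; exact x_mem_rs (List.mem_cons_self) 1, F.le_fix (el F r).2⟩

theorem zl_mem (r : Fin 72) (t : K) : zl F r t ∈ X φ (rr r) := by
  by_cases hr : rho r ≠ r
  · refine mem_X_iff.2 ⟨?_, F.le_fix (zl F r t).2⟩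
    rw [coe_zl F hr]
    exact mul_mem (x_mem_rs List.mem_cons_self _) (x_mem_rs (List.mem_cons_of_mem _ List.mem_cons_self) _)
  · rw [zl, dif_neg hr]
    exact one_mem _

/-! ### The class of root elements -/

open Cfsg.Agent.BabyU (rootClass)

theorem el_T {r : Fin 72} (hr : rho r = r) : el F r ∈ rootClass K := by
  have := F.charP
  obtain ⟨w, -, rfl⟩ := exists_fixW r hr
  refine (Cfsg.Agent.TwoESix.RootsInst.mem_rootClass_iff F).2 ⟨nw F w, ?_⟩
  rw [coe_el F hr, coe_nw, ← wn_conj]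
  rfl

theorem conj_T {t : KK K} (ht : t ∈ rootClass K) (g : KK K) : g * t * g⁻¹ ∈ rootClass K :=
  (Cfsg.Agent.TwoESix.RootsInst.roots K F.card).conj t ht g

/-- the sum of the elements of a line -/
theorem el_el_T {a b c : Fin 72} (ha : rho a = a) (hb : rho b = b) (hc : rho c = c) (h : Single b a c) (h' : Cm a c) :
    el F b * el F c ∈ rootClass K := by
  rw [← el_el' F ha hb hc h h']
  exact conj_T F (el_T F hb) _

end Four

end Cfsg.Agent.H926.F4
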